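import Cfsg.Agent.Lib.SporRecognition.Cert.Fi22Conf.Base

/-!
Point configurations in the 3510 members of the presented Fi22: seven nodes, sets as bit masks, and the checks
used by the certificates for the local structure of type M(23).
-/

set_option autoImplicit false

namespace CfsgLib.Fischer.M23Recog.Cert

open CfsgLib.SporRecognition.CosetCert
open CfsgLib.SporRecognition.FischerAut

/-- A centre with six nodes. -/
inductive N7
  | o | d | c | b | e | f | h
  deriving DecidableEq

/-- The six nodes form a diagram of type E6, all commuting with the centre. -/
def edge7 : N7 → N7 → Bool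
  | .d, .c | .c, .d | .d, .e | .e, .d | .d, .h | .h, .d | .c, .b | .b, .c | .e, .f | .f, .e => true
  | _, _ => false

/-- Membership in a mask. -/
noncomputable def inSet (K u : Nat) : Bool := Nat.beq (Nat.land (Nat.shiftRight K u) 1) 1

/-- The table keeps the mask. -/
noncomputable def closedStep (K : Nat) (ts : List (Nat → Nat)) (u : Nat) : Bool :=
  bif inSet K u then List.rec true (fun t _ ih => inSet K (t u) && ih) ts else true

/-- Members of the mask are in the list. -/
noncomputable def listedStep (K : Nat) (l : List Nat) (u : Nat) : Bool :=
  bif inSet K u then List.rec false (fun x _ ih => Nat.beq u x || ih) l else true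

/-- A candidate avoids all but the listed points. -/
noncomputable def candStep (c : List ((Nat → Nat) × Bool × Nat)) (l : List Nat) (u : Nat) : Bool :=
  bif condStep c u then List.rec false (fun x _ ih => Nat.beq u x || ih) l else true

/-- The number of tables fixing a point other than their own. -/
noncomputable def fixCount (ts : List ((Nat → Nat) × Nat)) (u : Nat) : Nat :=
  List.rec 0 (fun x _ ih => Nat.add (bif Nat.beq (x.1 u) u && !(Nat.beq u x.2) then 1 else 0) ih) ts

/-- A far point outside the good set has small count or is listed. -/
noncomputable def excStep (tu : Nat → Nat) (pu : Nat) (tg : Nat → Nat) (pg : Nat) (good : Nat)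
    (ts : List ((Nat → Nat) × Nat)) (a : Nat) (l : List Nat) (u : Nat) : Bool :=
  bif Nat.beq (tg u) u && !(Nat.beq u pg) && !(Nat.beq (tu u) u) && !(inSet good u) then
    Nat.ble (fixCount ts u) a || List.rec false (fun x _ ih => Nat.beq u x || ih) l
  else true

end CfsgLib.Fischer.M23Recog.Cert
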