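import Cfsg.Agent.Lib.Fischer.M23Recog.Cert.Nodes

/-! Generated certificate for the local structure of type M(23): the search tree. -/

set_option autoImplicit false
set_option maxRecDepth 20000
set_option linter.all false
set_option Elab.async false

namespace CfsgLib.Fischer.M23Recog.Cert

open CfsgLib.SporRecognition.CosetCert
open CfsgLib.SporRecognition.FischerAut
open CfsgLib.SporRecognition.Cert

theorem realised_tau {v : Fin 3510} {t : Nat → Nat} {pts : List (Fin 3510)} (h : Tabled Fi22Conf.τ Fi22Conf.σ v t)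
    (hfix : (pts.all fun p => Nat.beq (t p) p) = true) : Realised (ptsStab Fi22Conf.σ.range pts) t := by
  refine ⟨Fi22Conf.σ (Fi22Conf.τ v), ⟨⟨_, rfl⟩, fun p hp => Fin.ext ?_⟩, h⟩
  simp only [List.all_eq_true] at hfix
  rw [h]
  exact Nat.eq_of_beq_eq_true (hfix p hp)

def tgtA : N7 → Fin 3510 := fun x => match x with | .o => q6 | .d => q2 | .c => q16 | .b => q47 | .e => q37 | .f => q281 | .h => q1530
def tgtB : N7 → Fin 3510 := fun x => match x with | .o => q6 | .d => q2 | .c => q16 | .b => q47 | .e => q37 | .f => q8 | .h => q1173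
def tgtC : N7 → Fin 3510 := fun x => match x with | .o => q6 | .d => q2 | .c => q16 | .b => q47 | .e => q37 | .f => q95 | .h => q80
def targets : List (N7 → Fin 3510) := [tgtA, tgtB, tgtC]

theorem closed_6_2_16_47_37_294 : Closed Fi22Conf.σ Fi22Conf.τ edge7 [] targets ([(.o, q6), (.d, q2), (.c, q16), (.b, q47), (.e, q37), (.f, q294)] : List (N7 × Fin 3510)) := by
  intro q hq he
  have h := cond_of_config (g := N7.h) (by decide) (.cons tw6 (.cons tw2 (.cons tw16 (.cons tw47 (.cons tw37 (.cons tw294 .nil)))))) hq he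
  have h1 := allBelow_spec nchkN11 (q .h) (q .h).2
  change (!(candN11 (q .h))) = true at h1
  rw [show candN11 (q .h) = true from h] at h1
  exact absurd h1 (by decide)

theorem closed_6_2_16_47_37_281_1530 : Closed Fi22Conf.σ Fi22Conf.τ edge7 [] targets ([(.o, q6), (.d, q2), (.c, q16), (.b, q47), (.e, q37), (.f, q281), (.h, q1530)] : List (N7 × Fin 3510)) :=
  Closed.full (fun x => by cases x <;> exact ⟨_, by simp; rfl⟩) tgtA (by simp [targets]) (by decide)

theorem closed_6_2_16_47_37_281 : Closed Fi22Conf.σ Fi22Conf.τ edge7 [] targets ([(.o, q6), (.d, q2), (.c, q16), (.b, q47), (.e, q37), (.f, q281)] : List (N7 × Fin 3510)) := by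
  refine Closed.node Fi22Conf.base.heq (qt := [w6, w2, w16, w47, w37, w281]) .h (by decide) (.cons tw6 (.cons tw2 (.cons tw16 (.cons tw47 (.cons tw37 (.cons tw281 .nil))))))
    gensN9 (List.forall_mem_cons.mpr ⟨realised_tau tw623 (by decide +kernel), (fun _ h => absurd h List.not_mem_nil)⟩)
    labN9 rootN9 rkN9 viaN9 srcN9 1 (allBelow_spec nchkN9) ?_
  intro l hl r hr
  interval_cases l
  · obtain rfl : r = q1530 := Fin.ext (hr.trans (by decide +kernel))
    exact closed_6_2_16_47_37_281_1530

theorem closed_6_2_16_47_37_95_80 : Closed Fi22Conf.σ Fi22Conf.τ edge7 [] targets ([(.o, q6), (.d, q2), (.c, q16), (.b, q47), (.e, q37), (.f, q95), (.h, q80)] : List (N7 × Fin 3510)) :=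
  Closed.full (fun x => by cases x <;> exact ⟨_, by simp; rfl⟩) tgtC (by simp [targets]) (by decide)

theorem closed_6_2_16_47_37_95 : Closed Fi22Conf.σ Fi22Conf.τ edge7 [] targets ([(.o, q6), (.d, q2), (.c, q16), (.b, q47), (.e, q37), (.f, q95)] : List (N7 × Fin 3510)) := by
  refine Closed.node Fi22Conf.base.heq (qt := [w6, w2, w16, w47, w37, w95]) .h (by decide) (.cons tw6 (.cons tw2 (.cons tw16 (.cons tw47 (.cons tw37 (.cons tw95 .nil))))))
    gensN7 (List.forall_mem_cons.mpr ⟨realised_tau tw497 (by decide +kernel), (fun _ h => absurd h List.not_mem_nil)⟩)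
    labN7 rootN7 rkN7 viaN7 srcN7 1 (allBelow_spec nchkN7) ?_
  intro l hl r hr
  interval_cases l
  · obtain rfl : r = q80 := Fin.ext (hr.trans (by decide +kernel))
    exact closed_6_2_16_47_37_95_80

theorem closed_6_2_16_47_37_8_1173 : Closed Fi22Conf.σ Fi22Conf.τ edge7 [] targets ([(.o, q6), (.d, q2), (.c, q16), (.b, q47), (.e, q37), (.f, q8), (.h, q1173)] : List (N7 × Fin 3510)) :=
  Closed.full (fun x => by cases x <;> exact ⟨_, by simp; rfl⟩) tgtB (by simp [targets]) (by decide)

theorem closed_6_2_16_47_37_8 : Closed Fi22Conf.σ Fi22Conf.τ edge7 [] targets ([(.o, q6), (.d, q2), (.c, q16), (.b, q47), (.e, q37), (.f, q8)] : List (N7 × Fin 3510)) := by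
  refine Closed.node Fi22Conf.base.heq (qt := [w6, w2, w16, w47, w37, w8]) .h (by decide) (.cons tw6 (.cons tw2 (.cons tw16 (.cons tw47 (.cons tw37 (.cons tw8 .nil))))))
    gensN5 (List.forall_mem_cons.mpr ⟨realised_tau tw140 (by decide +kernel), (fun _ h => absurd h List.not_mem_nil)⟩)
    labN5 rootN5 rkN5 viaN5 srcN5 1 (allBelow_spec nchkN5) ?_
  intro l hl r hr
  interval_cases l
  · obtain rfl : r = q1173 := Fin.ext (hr.trans (by decide +kernel))
    exact closed_6_2_16_47_37_8_1173

theorem closed_6_2_16_47_37 : Closed Fi22Conf.σ Fi22Conf.τ edge7 [] targets ([(.o, q6), (.d, q2), (.c, q16), (.b, q47), (.e, q37)] : List (N7 × Fin 3510)) := by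
  refine Closed.node Fi22Conf.base.heq (qt := [w6, w2, w16, w47, w37]) .f (by decide) (.cons tw6 (.cons tw2 (.cons tw16 (.cons tw47 (.cons tw37 .nil)))))
    gensN4 (List.forall_mem_cons.mpr ⟨realised_tau tw140 (by decide +kernel), (List.forall_mem_cons.mpr ⟨realised_tau tw497 (by decide +kernel), (fun _ h => absurd h List.not_mem_nil)⟩)⟩)
    labN4 rootN4 rkN4 viaN4 srcN4 4 (allBelow_spec nchkN4) ?_
  intro l hl r hr
  interval_cases l
  · obtain rfl : r = q8 := Fin.ext (hr.trans (by decide +kernel))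
    exact closed_6_2_16_47_37_8
  · obtain rfl : r = q95 := Fin.ext (hr.trans (by decide +kernel))
    exact closed_6_2_16_47_37_95
  · obtain rfl : r = q281 := Fin.ext (hr.trans (by decide +kernel))
    exact closed_6_2_16_47_37_281
  · obtain rfl : r = q294 := Fin.ext (hr.trans (by decide +kernel))
    exact closed_6_2_16_47_37_294

theorem closed_6_2_16_47 : Closed Fi22Conf.σ Fi22Conf.τ edge7 [] targets ([(.o, q6), (.d, q2), (.c, q16), (.b, q47)] : List (N7 × Fin 3510)) := by
  refine Closed.node Fi22Conf.base.heq (qt := [w6, w2, w16, w47]) .e (by decide) (.cons tw6 (.cons tw2 (.cons tw16 (.cons tw47 .nil))))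
    gensN3 (List.forall_mem_cons.mpr ⟨realised_tau tw8 (by decide +kernel), (List.forall_mem_cons.mpr ⟨realised_tau tw140 (by decide +kernel), (List.forall_mem_cons.mpr ⟨realised_tau tw95 (by decide +kernel), (List.forall_mem_cons.mpr ⟨realised_tau tw464 (by decide +kernel), (fun _ h => absurd h List.not_mem_nil)⟩)⟩)⟩)⟩)
    labN3 rootN3 rkN3 viaN3 srcN3 1 (allBelow_spec nchkN3) ?_
  intro l hl r hr
  interval_cases l
  · obtain rfl : r = q37 := Fin.ext (hr.trans (by decide +kernel))
    exact closed_6_2_16_47_37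

theorem closed_6_2_16 : Closed Fi22Conf.σ Fi22Conf.τ edge7 [] targets ([(.o, q6), (.d, q2), (.c, q16)] : List (N7 × Fin 3510)) := by
  refine Closed.node Fi22Conf.base.heq (qt := [w6, w2, w16]) .b (by decide) (.cons tw6 (.cons tw2 (.cons tw16 .nil)))
    gensN2 (List.forall_mem_cons.mpr ⟨realised_tau tw8 (by decide +kernel), (List.forall_mem_cons.mpr ⟨realised_tau tw64 (by decide +kernel), (List.forall_mem_cons.mpr ⟨realised_tau tw71 (by decide +kernel), (List.forall_mem_cons.mpr ⟨realised_tau tw140 (by decide +kernel), (List.forall_mem_cons.mpr ⟨realised_tau tw35 (by decide +kernel), (fun _ h => absurd h List.not_mem_nil)⟩)⟩)⟩)⟩)⟩)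
    labN2 rootN2 rkN2 viaN2 srcN2 1 (allBelow_spec nchkN2) ?_
  intro l hl r hr
  interval_cases l
  · obtain rfl : r = q47 := Fin.ext (hr.trans (by decide +kernel))
    exact closed_6_2_16_47

theorem closed_6_2 : Closed Fi22Conf.σ Fi22Conf.τ edge7 [] targets ([(.o, q6), (.d, q2)] : List (N7 × Fin 3510)) := by
  refine Closed.node Fi22Conf.base.heq (qt := [w6, w2]) .c (by decide) (.cons tw6 (.cons tw2 .nil))
    gensN1 (List.forall_mem_cons.mpr ⟨realised_tau tw8 (by decide +kernel), (List.forall_mem_cons.mpr ⟨realised_tau tw64 (by decide +kernel), (List.forall_mem_cons.mpr ⟨realised_tau tw87 (by decide +kernel), (List.forall_mem_cons.mpr ⟨realised_tau tw140 (by decide +kernel), (List.forall_mem_cons.mpr ⟨realised_tau tw12 (by decide +kernel), (List.forall_mem_cons.mpr ⟨realised_tau tw47 (by decide +kernel), (fun _ h => absurd h List.not_mem_nil)⟩)⟩)⟩)⟩)⟩)⟩)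
    labN1 rootN1 rkN1 viaN1 srcN1 1 (allBelow_spec nchkN1) ?_
  intro l hl r hr
  interval_cases l
  · obtain rfl : r = q16 := Fin.ext (hr.trans (by decide +kernel))
    exact closed_6_2_16

theorem closed_6 : Closed Fi22Conf.σ Fi22Conf.τ edge7 [] targets ([(.o, q6)] : List (N7 × Fin 3510)) := by
  refine Closed.node Fi22Conf.base.heq (qt := [w6]) .d (by decide) (.cons tw6 .nil)
    gensN0 (List.forall_mem_cons.mpr ⟨realised_tau tw0 (by decide +kernel), (List.forall_mem_cons.mpr ⟨realised_tau tw2 (by decide +kernel), (List.forall_mem_cons.mpr ⟨realised_tau tw64 (by decide +kernel), (List.forall_mem_cons.mpr ⟨realised_tau tw87 (by decide +kernel), (List.forall_mem_cons.mpr ⟨realised_tau tw140 (by decide +kernel), (List.forall_mem_cons.mpr ⟨realised_tau tw16 (by decide +kernel), (List.forall_mem_cons.mpr ⟨realised_tau tw8 (by decide +kernel), (List.forall_mem_cons.mpr ⟨realised_tau tw17 (by decide +kernel), (fun _ h => absurd h List.not_mem_nil)⟩)⟩)⟩)⟩)⟩)⟩)⟩)⟩)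
    labN0 rootN0 rkN0 viaN0 srcN0 1 (allBelow_spec nchkN0) ?_
  intro l hl r hr
  interval_cases l
  · obtain rfl : r = q2 := Fin.ext (hr.trans (by decide +kernel))
    exact closed_6_2

theorem closed_root : Closed Fi22Conf.σ Fi22Conf.τ edge7 [] targets ([(.o, q6)] : List (N7 × Fin 3510)) := closed_6

end CfsgLib.Fischer.M23Recog.Cert
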